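import Cfsg.Agent.H845.OIU.PSU
import Cfsg.Agent.H323.OI.Pieces
import Cfsg.Agent.LieClassical.OrthFinite
import Cfsg.Agent.ClassicalGeometry.OrthSemiForms

/-!
# S3325, row `PSU`

`omega_quasi` : `Ω(U)` is quasisimple (`n ≥ 5`).
`kill_of_CF` : the row data are impossible if the non-abelian composition factors of `C_S(α)` are `PSL`, `PSU`,
`PSp` or alternating.
`pPsu : PName1 → PPsu`.
-/

set_option autoImplicit false

namespace Cfsg.Agent.H845.OIU

open Subgroup Cfsg Cfsg.Agent.H340 Cfsg.Agent.H323.OI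
open Cfsg.Agent.LieClassical.OrthCore Cfsg.Agent.LieClassical.OrthTrans Cfsg.Agent.LieClassical.OrthSimple
  Cfsg.Agent.LieClassical.OrthFinite

/-! ### central quotients of perfect groups -/

theorem mem_center_of_comm {X : Type*} [Group X] (hX : commutator X = ⊤) {x : X}
    (h : ∀ y, x * y * x⁻¹ * y⁻¹ ∈ center X) : x ∈ center X := by
  let f : X →* ↥(center X) :=
    { toFun := fun y => ⟨x * y * x⁻¹ * y⁻¹, h y⟩
      map_one' := Subtype.ext (by
        change x * 1 * x⁻¹ * 1⁻¹ = 1
        group)
      map_mul' := fun y z => Subtype.ext (by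
        change x * (y * z) * x⁻¹ * (y * z)⁻¹ = (x * y * x⁻¹ * y⁻¹) * (x * z * x⁻¹ * z⁻¹)
        have h1 := mem_center_iff.1 (h z) y
        calc x * (y * z) * x⁻¹ * (y * z)⁻¹ = (x * y * x⁻¹) * (x * z * x⁻¹ * z⁻¹) * y⁻¹ := by group
          _ = (x * y * x⁻¹) * (y⁻¹ * (y * (x * z * x⁻¹ * z⁻¹))) * y⁻¹ := by group
          _ = (x * y * x⁻¹) * (y⁻¹ * ((x * z * x⁻¹ * z⁻¹) * y)) * y⁻¹ := by rw [h1]
          _ = _ := by group) }
  have h1 : commutator X ≤ f.ker := by
    rw [commutator_def, Subgroup.commutator_le]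
    intro a _ b _
    rw [MonoidHom.mem_ker, map_commutatorElement, commutatorElement_eq_one_iff_mul_comm]
    exact Subtype.ext (mem_center_iff.1 (f b).2 (f a))
  rw [hX] at h1
  rw [mem_center_iff]
  intro y
  have h2 : x * y * x⁻¹ * y⁻¹ = 1 := congrArg Subtype.val (h1 (mem_top y))
  rw [mul_inv_eq_one, mul_inv_eq_iff_eq_mul] at h2
  exact h2.symm

/-- the central quotient of the image -/
theorem nonempty_quot_equiv {X S : Type*} [Group X] [Group S] (hX : commutator X = ⊤) (φ : X →* S)
    (hφ : φ.ker ≤ center X) : Nonempty (↥φ.range ⧸ center ↥φ.range ≃* X ⧸ center X) := by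
  let g : X →* ↥φ.range ⧸ center ↥φ.range := (QuotientGroup.mk' (center ↥φ.range)).comp φ.rangeRestrict
  have hg : Function.Surjective g := (QuotientGroup.mk'_surjective _).comp φ.rangeRestrict_surjective
  have hk : g.ker = center X := by
    ext x
    have h0 : x ∈ g.ker ↔ φ.rangeRestrict x ∈ center ↥φ.range := by
      rw [MonoidHom.mem_ker]
      exact QuotientGroup.eq_one_iff _
    rw [h0]
    constructor
    · intro h
      apply mem_center_of_comm hX
      intro y
      apply hφ
      have h1 := mem_center_iff.1 h (φ.rangeRestrict y)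
      have h2 : φ y * φ x = φ x * φ y := congrArg Subtype.val h1
      rw [MonoidHom.mem_ker, map_mul, map_mul, map_mul, map_inv, map_inv, ← h2]
      group
    · intro h
      rw [mem_center_iff]
      rintro ⟨_, y, rfl⟩
      apply Subtype.ext
      change φ y * φ x = φ x * φ y
      rw [← map_mul, ← map_mul, mem_center_iff.1 h y]
  exact ⟨((QuotientGroup.quotientMulEquivOfEq hk).symm.trans
    (QuotientGroup.quotientKerEquivOfSurjective g hg)).symm⟩

/-! ### `Ω(U)` -/

section

variable {F : Type} [Field F] [Fintype F] {n : ℕ}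

theorem polar_dq (c : Fin n → F) (v w : Fin n → F) :
    QuadraticMap.polar ⇑(dqF c) v w = 2 * ∑ i, c i * v i * w i := by
  rw [QuadraticMap.polar, coe_dqF]
  simp only [dq, Pi.add_apply]
  rw [← Finset.sum_sub_distrib, ← Finset.sum_sub_distrib, Finset.mul_sum]
  exact Finset.sum_congr rfl fun i _ => by ring

theorem good_dq (c : Fin n → F) (h2 : (2 : F) ≠ 0) (hc : ∀ i, c i ≠ 0) (hn : 5 ≤ n) : Good (dqF c) := by
  classical
  refine good_of_finite ?_ ?_
  · intro v hv
    funext i
    have h1 := hv (Pi.single i 1)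
    rw [polar_dq, Finset.sum_eq_single i] at h1
    · rw [Pi.single_eq_same, mul_one] at h1
      have h3 := (mul_eq_zero.1 h1).resolve_left h2
      exact (mul_eq_zero.1 h3).resolve_left (hc i)
    · intro j _ hj
      rw [Pi.single_eq_of_ne hj, mul_zero]
    · intro h
      exact absurd (Finset.mem_univ i) h
  · rw [Module.finrank_fin_fun]
    exact hn

theorem exists_omega_equiv (c : Fin n → F) (hG : Good (dqF c)) : Nonempty (Om c ≃* ↥(E (dqF c))) := by
  have key : ∀ (f : (Fin n → F) → F), ⇑(dqF c) = f → Nonempty (↥(Omega F f) ≃* ↥(E (dqF c))) := by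
    rintro _ rfl
    exact ⟨(omegaEquiv (dqF c)).trans (MulEquiv.subgroupCongr hG.commutator_eq_E)⟩
  exact key _ (coe_dqF c)

theorem omega_perfect (c : Fin n → F) (hG : Good (dqF c)) : commutator (Om c) = ⊤ := by
  obtain ⟨e⟩ := exists_omega_equiv c hG
  have h1 : commutator ↥(E (dqF c)) = ⊤ := by
    rw [eq_top_iff, ← Subgroup.map_le_map_iff_of_injective (Subgroup.subtype_injective (E (dqF c))),
      commutator_def, Subgroup.map_commutator, ← MonoidHom.range_eq_map, Subgroup.range_subtype,
      hG.E_perfect]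
  have h2 : (commutator (Om c)).map e.toMonoidHom = ⊤ := by
    rw [commutator_def, Subgroup.map_commutator, ← MonoidHom.range_eq_map,
      MonoidHom.range_eq_top.2 e.surjective, ← commutator_def, h1]
  rw [eq_top_iff]
  intro x _
  have h3 : e x ∈ (commutator (Om c)).map e.toMonoidHom := by rw [h2]; exact mem_top _
  obtain ⟨y, hy, hyx⟩ := h3
  have h4 : y = x := e.injective hyx
  rwa [← h4]

theorem two_ne {F : Type} [Field F] [Fintype F] (h : Odd (Fintype.card F)) : (2 : F) ≠ 0 := by
  intro h2
  have h3 : CharP F 2 := CharTwo.of_one_ne_zero_of_two_eq_zero one_ne_zero h2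
  have h4 : 2 ∣ Fintype.card F := by
    rw [← CharP.cast_eq_zero_iff F 2]
    exact Nat.cast_card_eq_zero F
  exact (Nat.not_even_iff_odd.2 h) (even_iff_two_dvd.2 h4)

theorem Sp_eight {c : Fin n → F} (h : Sp c) : 8 ≤ n := by
  have h1 : Fintype.card F % 4 = 1 ∨ Fintype.card F % 4 = 3 := by
    have := h.odd
    rw [Nat.odd_iff] at this
    omega
  rcases h1 with h1 | h1
  · rcases h.h6.1 h1 with h2 | ⟨h2, -⟩ <;> omega
  · rcases h.h6.2 h1 with h2 | ⟨h2, -⟩ | ⟨h2, -⟩ <;> omega

end

/-! ### the row data -/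

/-- the composition factors which are excluded by `PName1` -/
def Bad (X : Type) [Group X] : Prop := (∀ a b : X, a * b = b * a) ∨ IsAlternating X ∨ IsPSL X ∨ IsPSU X ∨
  ∃ (F' : Type) (_ : Field F') (_ : Fintype F') (m : ℕ), Nonempty (X ≃* PSp m F')

/-- the row data are impossible if the composition factors of `C_S(α)` are alternating, `PSL`, `PSU`, `PSp` -/
theorem kill_of_CF (hN : PName1) {F : Type} [Field F] [Fintype F] {n : ℕ} (c : Fin n → F) (hc : Sp c)
    (S : Type) [Group S] (r : RowS c S) (h : CF (fun X _ => Bad X) ↥(fx r.α)) : False := by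
  have hG : Good (dqF c) := good_dq c (two_ne hc.odd) hc.ne (le_trans (by norm_num) (Sp_eight hc))
  have hle : r.φ.range ≤ fx r.α := by
    rintro _ ⟨m, rfl⟩
    exact r.fix m
  obtain ⟨e1⟩ := nonempty_quot_equiv (omega_perfect c hG) r.φ r.ker
  have e2 : ↥(r.φ.range.subgroupOf (fx r.α)) ≃* ↥r.φ.range := subgroupOfEquivOfLe hle
  have e3 : (↥(r.φ.range.subgroupOf (fx r.α)) ⧸ center ↥(r.φ.range.subgroupOf (fx r.α))) ≃* POmega F (dq c) :=
    (quotientCenterCongr e2).trans e1
  obtain ⟨hsub, hperf, hsimple⟩ := r.comp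
  have hna : ∃ a b : (↥(r.φ.range.subgroupOf (fx r.α)) ⧸ center ↥(r.φ.range.subgroupOf (fx r.α))),
      a * b ≠ b * a := by
    by_contra hcon
    push Not at hcon
    have h1 : commutator ↥(r.φ.range.subgroupOf (fx r.α)) ≤ center ↥(r.φ.range.subgroupOf (fx r.α)) := by
      rw [commutator_def, Subgroup.commutator_le]
      intro x _ y _
      have h2 := hcon (QuotientGroup.mk x) (QuotientGroup.mk y)
      rw [← QuotientGroup.eq_one_iff, commutatorElement_def, QuotientGroup.mk_mul, QuotientGroup.mk_mul,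
        QuotientGroup.mk_mul, QuotientGroup.mk_inv, QuotientGroup.mk_inv, h2]
      group
    have h2 : commutator ↥(r.φ.range.subgroupOf (fx r.α)) = ⊤ := hperf.commutator_eq_top
    rw [h2] at h1
    obtain ⟨a, b, hab⟩ := hsimple.exists_pair_ne
    obtain ⟨a', rfl⟩ := QuotientGroup.mk_surjective a
    obtain ⟨b', rfl⟩ := QuotientGroup.mk_surjective b
    apply hab
    rw [(QuotientGroup.eq_one_iff a').2 (h1 (mem_top a')), (QuotientGroup.eq_one_iff b').2 (h1 (mem_top b'))]
  have h1 := h _ hsub _ hna (QuotientGroup.mk' _) (QuotientGroup.mk'_surjective _)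
  obtain ⟨n1, n2, n3, n4⟩ := hN c hc _ ⟨e3⟩
  rcases h1 with h1 | h1 | h1 | h1 | h1
  · obtain ⟨a, b, hab⟩ := hna
    exact hab (h1 a b)
  · exact n1 h1
  · exact n2 h1
  · exact n3 h1
  · exact n4 h1

/-- simple groups isomorphic to a solvable group -/
theorem comm_of_solvable {X Y : Type} [Group X] [Group Y] (hY : Group.IsSolvable Y) (hs : IsSimpleGroup Y)
    (e : X ≃* Y) (a b : X) : a * b = b * a := by
  apply e.injective
  rw [map_mul, map_mul]
  exact IsSimpleGroup.comm_iff_isSolvable.2 hY _ _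

/-- the base of the linear and unitary groups -/
theorem base_bad (r : ℕ) : BaseLU r (fun (X : Type) _ => Bad X) where
  psl F _ _ _ n hs S _ e := by
    have := Fintype.ofFinite F
    obtain ⟨e⟩ := e
    rcases Nat.lt_or_ge n 2 with hn | hn
    · left
      have h1 : Subsingleton (Fin n) := by
        have : n = 0 ∨ n = 1 := by omega
        rcases this with rfl | rfl <;> infer_instance
      have h2 : Subsingleton (Matrix.SpecialLinearGroup (Fin n) F) := inferInstance
      have h3 : Group.IsSolvable (Matrix.SpecialLinearGroup (Fin n) F) := inferInstance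
      exact comm_of_solvable (Group.isSolvable_of_surjective
        (QuotientGroup.mk'_surjective (center (Matrix.SpecialLinearGroup (Fin n) F)))) hs e
    · by_cases h4 : n = 2 → 4 ≤ Fintype.card F
      · right; right; left
        exact ⟨F, inferInstance, inferInstance, n, hn, h4, ⟨e⟩⟩
      · left
        push Not at h4
        obtain ⟨rfl, h4⟩ := h4
        have h5 : Group.IsSolvable (Matrix.SpecialLinearGroup (Fin 2) F) :=
          BpLin.isSolvable_sl_two (by rw [Nat.card_eq_fintype_card]; omega)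
        exact comm_of_solvable (Group.isSolvable_of_surjective
          (QuotientGroup.mk'_surjective (center (Matrix.SpecialLinearGroup (Fin 2) F)))) hs e
  psu F _ _ _ n q hF hn hs S _ e := by
    obtain ⟨e⟩ := e
    by_cases h32 : n = 3 ∧ q = 2
    · left
      obtain ⟨rfl, rfl⟩ := h32
      exact comm_of_solvable (S0282.result (F := F) hF).2 hs e
    · right; right; right; left
      exact ⟨F, inferInstance, inferInstance, n, q, hF, hn, h32, ⟨e⟩⟩

/-- transport of the fixed points -/
theorem CF_fx {P : ∀ (S : Type) [Group S], Prop} {S Y : Type} [Group S] [Group Y] (e : S ≃* Y) (α : MulAut S)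
    (h : CF P ↥(fixedSubgroup (MulAut.congr e α : MulAut Y))) : CF P ↥(fx α) := by
  have h1 : (fx α).map e.toMonoidHom = fixedSubgroup (MulAut.congr e α : MulAut Y) := by
    ext y
    constructor
    · rintro ⟨x, hx, rfl⟩
      change e (α (e.symm (e x))) = e x
      rw [e.symm_apply_apply, show α x = x from hx]
    · intro hy
      have hy' : e (α (e.symm y)) = y := hy
      refine ⟨e.symm y, ?_, e.apply_symm_apply y⟩
      change α (e.symm y) = e.symm y
      apply e.injective
      rw [hy', e.apply_symm_apply]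
  exact h.congr (((fx α).equivMapOfInjective e.toMonoidHom e.injective).trans (MulEquiv.subgroupCongr h1)).symm

/-- **Piece 8b of S3325.** -/
theorem pPsu : PName1 → PPsu := by
  intro hN p hp hp2 F _ _ n c hc S _ _ _ r hS
  obtain ⟨F', _, _, _, m, q, hF, hm, h32, ⟨e⟩⟩ := hS
  have h1 : MulAut.congr e r.α = MulAut.conj (e (r.φ r.m₀)) *
      (MulAut.congr e r.β * MulAut.congr e r.β' * (MulAut.congr e r.β)⁻¹ * (MulAut.congr e r.β')⁻¹) ^ r.j := by
    have h2 : MulAut.congr e (MulAut.conj (r.φ r.m₀)) = MulAut.conj (e (r.φ r.m₀)) := by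
      ext y
      change e (r.φ r.m₀ * e.symm y * (r.φ r.m₀)⁻¹) = e (r.φ r.m₀) * y * (e (r.φ r.m₀))⁻¹
      rw [map_mul, map_mul, map_inv, e.apply_symm_apply]
    conv_lhs => rw [r.eq]
    rw [map_mul, map_pow, map_mul, map_mul, map_mul, map_inv, map_inv, h2]
  obtain ⟨A, hA⟩ := exists_linear hF hm h32 h1
  refine kill_of_CF hN c hc S r (CF_fx e r.α ?_)
  rw [hA]
  refine cf_psu_linear hp hp2 (base_bad p) hF hm A ?_
  rw [← hA, ← map_mul, r.aa, map_one]

end Cfsg.Agent.H845.OIU
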