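import Cfsg.Agent.H845.OIU.SecondKind

/-!
# `PSU_n(q)`, odd characteristic: centralizers of involutory automorphisms induced by `GU_n(q)`

`cf_psu_linear` : the non-abelian composition factors of the fixed points of an involutory automorphism of `PSU_n(q)`
induced by an element of `GU_n(q)` are `PSL`, `PSU`.
`exists_linear` : an automorphism in a conjugate of `Inn S · [Aut S, Aut S]` is induced by an element of `GU_n(q)`.
-/

set_option autoImplicit false
set_option linter.unusedSectionVars false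

namespace Cfsg.Agent.H845.OIU

open Subgroup Cfsg Cfsg.Agent.BpLin Cfsg.Agent.H340 Matrix
open Cfsg.Agent.LieClassical.HermBasic Cfsg.Agent.LieClassical.HermSiegel
open Cfsg.Agent.ClassicalGeometry.PSUAutCount (gm semiConj toAut gm_mul gm_one gm_mul_inv gm_inv_mul eq_of_toAut_eq
  sc gm_sc_mul toAut_sc_mul herm_gm act_semiConj herm_semi gm_mulVec_inv gm_inv_mulVec gm_inj)
open Cfsg.Agent.Schreier.PSU (f₁ f₂ toAut_eq mapGU conj_field toAut_pr' gm_mapGU)
open Cfsg.Agent.CpAutU.Desc (toAut_mul toAut_one gm_mapGU')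

universe u

variable {P : ∀ (S : Type u) [Group S], Prop} {r : ℕ} {F : Type} [Field F] [Fintype F] [CharP F r] {n q : ℕ}

omit [CharP F r] in
/-- some scalar is moved by the Frobenius map -/
theorem exists_pow_ne (hF : Fintype.card F = q ^ 2) : ∃ a : F, a ^ q ≠ a := by
  classical
  by_contra h
  push Not at h
  have hq : 1 < q := by
    have h1 : 1 < Fintype.card F := Fintype.one_lt_card
    rw [hF] at h1
    by_contra hq
    interval_cases q <;> simp_all
  have h1 : Fintype.card F ≤ q := by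
    have h2 : (Polynomial.X ^ q - Polynomial.X : Polynomial F) ≠ 0 := FiniteField.X_pow_card_sub_X_ne_zero F hq
    have h3 : (Polynomial.X ^ q - Polynomial.X : Polynomial F).natDegree = q :=
      FiniteField.X_pow_card_sub_X_natDegree_eq F hq
    have h4 := Polynomial.card_roots' (Polynomial.X ^ q - Polynomial.X : Polynomial F)
    rw [h3] at h4
    have h5 : (Finset.univ : Finset F) ⊆ (Polynomial.X ^ q - Polynomial.X : Polynomial F).roots.toFinset := by
      intro a _
      rw [Multiset.mem_toFinset, Polynomial.mem_roots h2, Polynomial.IsRoot.def, Polynomial.eval_sub,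
        Polynomial.eval_pow, Polynomial.eval_X, h a, sub_self]
    have h6 := Finset.card_le_card h5
    rw [Finset.card_univ] at h6
    exact h6.trans ((Multiset.toFinset_card_le _).trans h4)
  rw [hF] at h1
  nlinarith

/-- **`PSU_n(q)`, odd characteristic, automorphisms induced by `GU_n(q)`.** -/
theorem cf_psu_linear (hr : r.Prime) (hr2 : r ≠ 2) (hB : BaseLU r P) (hF : Fintype.card F = q ^ 2) (hn : 3 ≤ n)
    (A : Cfsg.GU n F q) (h2 : (toAut A 1 : MulAut (PSU n F q)) * toAut A 1 = 1) :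
    CF P ↥(fixedSubgroup (toAut A 1 : MulAut (PSU n F q))) := by
  have hNZ : NeZero n := ⟨by omega⟩
  rw [toAut_mul] at h2
  obtain ⟨hρ, c, -, hc⟩ := eq_of_toAut_eq (A := 1) (ρ := 1) hF hn ((toAut_one (F := F) (n := n) (q := q)).trans h2.symm)
  obtain ⟨B, hB'⟩ : ∃ B : GL (Fin n) F, B = (A : GL (Fin n) F) := ⟨_, rfl⟩
  have hBc : scalar (Fin n) c = ((B * mg (1 : F ≃+* F) B : GL (Fin n) F) : Matrix (Fin n) (Fin n) F) := by
    rw [hB']
    change _ = gm (A * mapGU (1 : F ≃+* F) A)
    rw [hc, gm_one, Matrix.scalar_apply, ← Matrix.smul_one_eq_diagonal]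
  have hτ : ∀ T, semi B 1 (semi B 1 T) = T := semi_semi hBc hρ
  let s := ctI n hF
  have hBU : B ∈ s.U := (mem_ctU hF B).2 (by rw [hB']; exact fun u v => herm_gm A u v)
  have hBs : s (B : Matrix (Fin n) (Fin n) F) = ((B⁻¹ : GL (Fin n) F) : Matrix (Fin n) (Fin n) F) := by
    have h3 : (B : Matrix (Fin n) (Fin n) F) * s (B : Matrix (Fin n) (Fin n) F) = 1 := hBU
    rw [← Units.mul_right_inj B, h3, Units.mul_inv]
  have hBs' : s ((B⁻¹ : GL (Fin n) F) : Matrix (Fin n) (Fin n) F) = (B : Matrix (Fin n) (Fin n) F) := by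
    rw [← hBs, s.inv]
  have hs : ∀ T, semi B 1 (s T) = s (semi B 1 T) := by
    intro T
    rw [semi_apply, semi_apply, s.mul, s.mul, hBs, hBs', ← mul_assoc]
    congr 2
  -- a scalar
  have hsc : ∀ a : F, semi B 1 (scalar (Fin n) a) = scalar (Fin n) a := by
    intro a
    have h3 : (scalar (Fin n) a).map ((1 : F ≃+* F) : F →+* F) = scalar (Fin n) a := by
      ext i j
      rfl
    rw [semi_apply, h3, ← (scalar_commute (n := Fin n) a (Commute.all a) (B : Matrix (Fin n) (Fin n) F)).eq,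
      mul_assoc, ← Units.val_mul, mul_inv_cancel, Units.val_one, mul_one]
  obtain ⟨a, ha⟩ := exists_pow_ne hF
  have hsa : s (scalar (Fin n) a) = scalar (Fin n) (a ^ q) := by
    ext i j
    rw [ctI_apply, scalar_apply, scalar_apply]
    by_cases hij : i = j
    · subst hij
      rw [diagonal_apply_eq, diagonal_apply_eq]
    · rw [diagonal_apply_ne _ hij, diagonal_apply_ne _ (Ne.symm hij), zero_pow_q hF]
  have h4 : CF P ↥(s.U ⊓ fixU (semi B 1)) := by
    have hne : a ^ q - a ≠ 0 := sub_ne_zero.2 ha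
    have hsub : s (scalar (Fin n) a) - scalar (Fin n) a = scalar (Fin n) (a ^ q - a) := by
      rw [hsa, map_sub]
    refine cf_fixUnitary_second hr hr2 hB (semi B 1) hτ s hs (z := scalar (Fin n) a)
      (w := scalar (Fin n) (a ^ q - a)⁻¹) (fun x => ?_) (hsc a) (hsc _) ?_ ?_
    · exact ((scalar_commute (n := Fin n) a (Commute.all a) x).eq).symm
    · rw [hsub, ← map_mul, mul_inv_cancel₀ hne, map_one]
    · rw [hsub, ← map_mul, inv_mul_cancel₀ hne, map_one]
  have hsemi : ∀ m : SU n F q, mat (semiConj A 1 m) = semi B 1 (mat m) := by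
    intro m
    rw [hB']
    rfl
  have hfix : ∀ m : SU n F q, semiConj A 1 m = m ↔ semi B 1 (mat m) = mat m :=
    fun m => ⟨fun h => by rw [← hsemi, h], fun h => mat_injective (by rw [hsemi, h])⟩
  let f : SU n F q →* GL (Fin n) F := (Matrix.SpecialLinearGroup.toGL).comp (SU n F q).subtype
  have hf : ∀ m : SU n F q, (f m : Matrix (Fin n) (Fin n) F) = mat m := fun _ => rfl
  have hfU : ∀ m : SU n F q, f m ∈ s.U := fun m => (mem_ctU hF _).2 m.2
  have h5 : CF P ↥(fixedSubgroup (semiConj A 1 : MulAut (SU n F q))) := by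
    refine CF.fixed_of_normal _ f
      (Matrix.SpecialLinearGroup.toGL_injective.comp (SU n F q).subtype_injective) h4
      (fun m hm => ⟨hfU m, (hfix m).1 hm⟩) fun c hc m hm => ?_
    have hcm : c * f m * c⁻¹ ∈ s.U := s.U.mul_mem (s.U.mul_mem hc.1 (hfU m)) (s.U.inv_mem hc.1)
    have hcf : c * f m * c⁻¹ ∈ fixU (semi B 1) :=
      Subgroup.mul_mem _ (Subgroup.mul_mem _ hc.2 ((hfix m).1 hm)) (Subgroup.inv_mem _ hc.2)
    have hdet : ((c * f m * c⁻¹ : GL (Fin n) F) : Matrix (Fin n) (Fin n) F).det = 1 := by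
      have h6 : ((f m : GL (Fin n) F) : Matrix (Fin n) (Fin n) F).det = 1 := det_mat m
      rw [Units.val_mul, Units.val_mul, Matrix.det_mul, Matrix.det_mul, h6, mul_one, ← Matrix.det_mul,
        ← Units.val_mul, mul_inv_cancel, Units.val_one, Matrix.det_one]
    let m' : SU n F q := ⟨⟨_, hdet⟩, (mem_ctU hF _).1 hcm⟩
    have hm' : mat m' = ((c * f m * c⁻¹ : GL (Fin n) F) : Matrix (Fin n) (Fin n) F) := rfl
    refine ⟨m', (hfix m').2 ?_, ?_⟩
    · rw [hm']
      exact hcf
    · apply Units.ext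
      rfl
  exact CF.fixed_of_lift (ClassicalGeometry.UnitAutBasic.pr n F q) ClassicalGeometry.UnitAutBasic.pr_surjective
    (fun x hx => (QuotientGroup.eq_one_iff x).1 hx) (semiConj A 1) _ (fun m => rfl) h5

omit [CharP F r] in
/-- an automorphism in `Inn S · [Aut S, Aut S]` is induced by an element of `GU_n(q)` -/
theorem exists_linear (hF : Fintype.card F = q ^ 2) (hn : 3 ≤ n) (h32 : ¬ (n = 3 ∧ q = 2))
    {α β β' : MulAut (PSU n F q)} {x : PSU n F q} {j : ℕ}
    (h : α = MulAut.conj x * (β * β' * β⁻¹ * β'⁻¹) ^ j) : ∃ A : Cfsg.GU n F q, α = toAut A 1 := by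
  obtain ⟨A, ρ, hA⟩ := ClassicalGeometry.PSUAutMain.exists_toAut hF hn h32 α
  refine ⟨A, ?_⟩
  -- the field part of an automorphism
  have key : ∀ θ : MulAut (PSU n F q), ∃ (B : Cfsg.GU n F q) (σ : F ≃+* F), θ = toAut B σ :=
    fun θ => (ClassicalGeometry.PSUAutMain.exists_toAut hF hn h32 θ)
  choose fB fσ hf using key
  have hmul : ∀ θ θ', fσ (θ * θ') = fσ θ * fσ θ' := by
    intro θ θ'
    have h1 : toAut (fB (θ * θ')) (fσ (θ * θ')) = toAut (fB θ * mapGU (fσ θ) (fB θ')) (fσ θ * fσ θ') := by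
      rw [← toAut_mul, ← hf, ← hf, ← hf]
    exact (eq_of_toAut_eq hF hn h1).1.symm
  let Φ : MulAut (PSU n F q) →* (F ≃+* F) :=
    { toFun := fσ
      map_one' := by
        have h1 := hmul 1 1
        rw [mul_one] at h1
        exact left_eq_mul.1 h1
      map_mul' := hmul }
  have hcomm : ∀ σ τ : F ≃+* F, σ * τ = τ * σ := fun σ τ => Cfsg.Agent.Schreier.ClassBase.ringAut_comm σ τ
  have hΦc : ∀ x : PSU n F q, Φ (MulAut.conj x) = 1 := by
    intro x
    obtain ⟨g, rfl⟩ := ClassicalGeometry.UnitAutBasic.pr_surjective x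
    have h1 := Schreier.PSU.f₁_eq_conj (suToGU n F q g) g (coe_suToGU (n := n) (F := F) (q := q) g)
    have h2 : toAut (fB (MulAut.conj (ClassicalGeometry.UnitAutBasic.pr n F q g)))
        (fσ (MulAut.conj (ClassicalGeometry.UnitAutBasic.pr n F q g))) = toAut (suToGU n F q g) 1 := by
      rw [← hf, ← h1]
      rfl
    exact (eq_of_toAut_eq hF hn h2).1.symm
  have h1 : Φ α = 1 := by
    rw [h, map_mul, hΦc, one_mul, map_pow, map_mul, map_mul, map_mul, map_inv, map_inv, hcomm (Φ β) (Φ β'),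
      mul_assoc, mul_assoc, mul_inv_cancel_left, mul_inv_cancel, one_pow]
  have h2 : toAut (fB α) (fσ α) = toAut A ρ := by rw [← hf, hA]
  have h3 : ρ = fσ α := (eq_of_toAut_eq hF hn h2).1
  rw [hA, h3, show fσ α = 1 from h1]

end Cfsg.Agent.H845.OIU
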