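import Cfsg.Agent.H340.OddPSU

/-!
# Unitary groups of finite semisimple rings with an involution of the second kind

`cf_unitary_second_kind` : `E` a finite semisimple ring of characteristic `r`, `s` an involution of `E`, `z` central
with `s z - z` invertible: the non-abelian composition factors of `U s` are `PSL`, `PSU`.
(variant of the theorems of H340 without symplectic and orthogonal factors)
-/

set_option autoImplicit false
set_option linter.unusedSectionVars false

namespace Cfsg.Agent.H845.OIU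

open Subgroup Cfsg Cfsg.Agent.BpLin Cfsg.Agent.H340
open scoped MatrixGroups Matrix

universe u

/-- The linear and unitary simple groups in characteristic `r` satisfy `P`. -/
structure BaseLU (r : ℕ) (P : ∀ (S : Type u) [Group S], Prop) : Prop where
  psl : ∀ (F : Type) [Field F] [Finite F] [CharP F r] (n : ℕ),
    IsSimpleGroup (Matrix.ProjectiveSpecialLinearGroup (Fin n) F) → ∀ (S : Type u) [Group S],
    Nonempty (S ≃* Matrix.ProjectiveSpecialLinearGroup (Fin n) F) → P S
  psu : ∀ (F : Type) [Field F] [Fintype F] [CharP F r] (n q : ℕ), Fintype.card F = q ^ 2 → 3 ≤ n →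
    IsSimpleGroup (PSU n F q) → ∀ (S : Type u) [Group S], Nonempty (S ≃* PSU n F q) → P S

variable {r : ℕ} {P : ∀ (S : Type u) [Group S], Prop}

section Linear

variable {F : Type} [Field F] [Finite F] [CharP F r]

theorem cf_sl (hP : BaseLU r P) (n : ℕ) : CF P (Matrix.SpecialLinearGroup (Fin n) F) := by
  rcases Nat.lt_or_ge n 2 with hn | hn
  · apply CF.of_solvable
    have : Subsingleton (Fin n) := by
      have : n = 0 ∨ n = 1 := by omega
      rcases this with rfl | rfl <;> infer_instance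
    have : Subsingleton (Matrix.SpecialLinearGroup (Fin n) F) := inferInstance
    infer_instance
  · by_cases hs : IsSimpleGroup (Matrix.ProjectiveSpecialLinearGroup (Fin n) F)
    · exact CF.of_central (Z := center _) le_rfl (CF.of_simple (hP.psl F n hs))
    · rcases Nat.eq_or_lt_of_le hn with rfl | hn
      · by_cases h : 4 ≤ Nat.card F
        · exact absurd (Matrix.ProjectiveSpecialLinearGroup.rank_two_simple h) hs
        · exact CF.of_solvable (isSolvable_sl_two h)
      · exact absurd (LieClassical.SLGen.psl_isSimpleGroup (by rw [Fintype.card_fin]; exact hn)) hs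

theorem cf_gl (hP : BaseLU r P) (n : ℕ) : CF P (GL (Fin n) F) := by
  refine CF.of_hom_comm (Matrix.GeneralLinearGroup.det (n := Fin n) (R := F)) ?_
  rw [← range_toGL n]
  exact (cf_sl hP n).congr (MonoidHom.ofInjective (Matrix.SpecialLinearGroup.toGL_injective))

end Linear

section Unitary

variable {F : Type} [Field F] [Fintype F] [CharP F r] {q : ℕ}

theorem cf_su (hP : BaseLU r P) (hF : Fintype.card F = q ^ 2) (n : ℕ) : CF P ↥(SU n F q) := by
  rcases Nat.lt_or_ge n 2 with hn | hn
  · apply CF.of_solvable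
    have : Subsingleton (Fin n) := by
      have : n = 0 ∨ n = 1 := by omega
      rcases this with rfl | rfl <;> infer_instance
    have : Subsingleton (Matrix.SpecialLinearGroup (Fin n) F) := inferInstance
    have : Subsingleton ↥(SU n F q) := inferInstance
    infer_instance
  · rcases Nat.eq_or_lt_of_le hn with rfl | hn
    · obtain ⟨_, _, _, _, θ, -⟩ := Phan.exists_model hF
      exact (cf_sl (F := Phan.fixedField hF) hP 2).congr θ
    · by_cases h : n = 3 ∧ q = 2
      · obtain ⟨rfl, rfl⟩ := h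
        have h1 := (S0282.result (F := F) hF).2
        exact CF.of_central (Z := center _) le_rfl (CF.of_solvable h1)
      · have h1 := S0283.result hF n hn h
        exact CF.of_central (Z := center _) le_rfl (CF.of_simple (hP.psu F n q hF hn h1))

theorem cf_gu (hP : BaseLU r P) (hF : Fintype.card F = q ^ 2) (n : ℕ) : CF P ↥(GU n F q) := by
  refine CF.of_hom_comm ((Matrix.GeneralLinearGroup.det (n := Fin n) (R := F)).comp (GU n F q).subtype) ?_
  have hinj : Function.Injective (suToGU n F q) := by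
    intro a b hab
    apply Subtype.ext
    apply Subtype.ext
    rw [← coe_suToGU, ← coe_suToGU, hab]
  have hr : (suToGU n F q).range =
      ((Matrix.GeneralLinearGroup.det (n := Fin n) (R := F)).comp (GU n F q).subtype).ker := by
    ext A
    constructor
    · rintro ⟨g, rfl⟩
      rw [MonoidHom.mem_ker]
      apply Units.ext
      change Matrix.det ((suToGU n F q g : GL (Fin n) F) : Matrix (Fin n) (Fin n) F) = 1
      rw [coe_suToGU]
      exact g.1.2
    · intro h
      rw [MonoidHom.mem_ker] at h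
      have h1 : Matrix.det ((A : GL (Fin n) F) : Matrix (Fin n) (Fin n) F) = 1 := congrArg Units.val h
      refine ⟨⟨⟨((A : GL (Fin n) F) : Matrix (Fin n) (Fin n) F), h1⟩, ?_⟩, ?_⟩
      · exact A.2
      · apply Subtype.ext
        apply Units.ext
        rw [coe_suToGU]
  rw [← hr]
  exact (cf_su hP hF n).congr (MonoidHom.ofInjective hinj)

end Unitary

section Matrix

open Matrix
open Cfsg.Agent.ClassicalGeometry.InvolutiveNorm Cfsg.Agent.ClassicalGeometry.HermOrthonormal

variable {R : ∀ (S : Type u) [Group S], Prop}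
variable {D : Type} [Field D] {d : ℕ} [NeZero d] (s : RInv (Matrix (Fin d) (Fin d) D))

theorem cf_unitary_second [Fintype D] {r : ℕ} [CharP D r] (hB : BaseLU r R)
    (h2 : ∃ z ∈ Subring.center (Matrix (Fin d) (Fin d) D), s z ≠ z) : CF R ↥s.U := by
  obtain ⟨σ, hσ2, hs⟩ := exists_sigma s
  have hσ : σ ≠ RingHom.id D := by
    rintro rfl
    obtain ⟨z, hz, hz2⟩ := h2
    obtain ⟨c, rfl⟩ := exists_scalar hz
    exact hz2 (hs c)
  obtain ⟨P, hPs, hP⟩ := exists_herm s hσ hσ2 hs
  obtain ⟨Q, hQ⟩ := exists_sqrt hσ hσ2 P hPs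
  obtain ⟨q, hq, hσq⟩ := exists_card_sq hσ hσ2
  rw [Nat.card_eq_fintype_card] at hq
  have key : s.U.map (MulAut.conj Q⁻¹).toMonoidHom = GU d D q := by
    have hQ1 : (Q : Matrix (Fin d) (Fin d) D) * ((Q⁻¹ : GL (Fin d) D) : Matrix (Fin d) (Fin d) D) = 1 := Q.mul_inv
    have hQ2 : ((Q⁻¹ : GL (Fin d) D) : Matrix (Fin d) (Fin d) D) * (Q : Matrix (Fin d) (Fin d) D) = 1 := Q.inv_mul
    have hP1 : (P : Matrix (Fin d) (Fin d) D) * ((P⁻¹ : GL (Fin d) D) : Matrix (Fin d) (Fin d) D) = 1 := P.mul_inv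
    have hP2 : ((P⁻¹ : GL (Fin d) D) : Matrix (Fin d) (Fin d) D) * (P : Matrix (Fin d) (Fin d) D) = 1 := P.inv_mul
    have hst : cst σ (Q : Matrix (Fin d) (Fin d) D) * cst σ ((Q⁻¹ : GL (Fin d) D) : Matrix (Fin d) (Fin d) D) = 1 := by
      rw [← cst_mul, hQ2, cst_one]
    have hst' : cst σ ((Q⁻¹ : GL (Fin d) D) : Matrix (Fin d) (Fin d) D) * cst σ (Q : Matrix (Fin d) (Fin d) D) = 1 := by
      rw [← cst_mul, hQ1, cst_one]
    -- the main computation
    have hmain : ∀ w : Matrix (Fin d) (Fin d) D,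
        ((Q : Matrix (Fin d) (Fin d) D) * w * ((Q⁻¹ : GL (Fin d) D) : Matrix (Fin d) (Fin d) D)) *
          s ((Q : Matrix (Fin d) (Fin d) D) * w * ((Q⁻¹ : GL (Fin d) D) : Matrix (Fin d) (Fin d) D)) =
        (Q : Matrix (Fin d) (Fin d) D) * (w * cst σ w) * (cst σ (Q : Matrix (Fin d) (Fin d) D) *
          ((P⁻¹ : GL (Fin d) D) : Matrix (Fin d) (Fin d) D)) := by
      intro w
      rw [hP, hQ, cst_mul, cst_mul]
      calc (Q : Matrix (Fin d) (Fin d) D) * w * ((Q⁻¹ : GL (Fin d) D) : Matrix (Fin d) (Fin d) D) *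
            ((Q : Matrix (Fin d) (Fin d) D) * cst σ (Q : Matrix (Fin d) (Fin d) D) *
            (cst σ ((Q⁻¹ : GL (Fin d) D) : Matrix (Fin d) (Fin d) D) * (cst σ w * cst σ (Q : Matrix (Fin d) (Fin d) D)))
            * ((P⁻¹ : GL (Fin d) D) : Matrix (Fin d) (Fin d) D))
          = (Q : Matrix (Fin d) (Fin d) D) * w * (((Q⁻¹ : GL (Fin d) D) : Matrix (Fin d) (Fin d) D) *
            (Q : Matrix (Fin d) (Fin d) D)) * (cst σ (Q : Matrix (Fin d) (Fin d) D) *
            cst σ ((Q⁻¹ : GL (Fin d) D) : Matrix (Fin d) (Fin d) D)) * cst σ w *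
            (cst σ (Q : Matrix (Fin d) (Fin d) D) * ((P⁻¹ : GL (Fin d) D) : Matrix (Fin d) (Fin d) D)) := by
            simp only [mul_assoc]
        _ = _ := by rw [hQ2, hst, mul_one, mul_one]; simp only [mul_assoc]
    ext w
    rw [mem_GU_iff_cst hq hσq]
    constructor
    · rintro ⟨u, hu, rfl⟩
      have hu1 : (u : Matrix (Fin d) (Fin d) D) * s (u : Matrix (Fin d) (Fin d) D) = 1 := hu
      have hw : ((MulAut.conj Q⁻¹).toMonoidHom u : GL (Fin d) D) = Q⁻¹ * u * Q := by
        change Q⁻¹ * u * (Q⁻¹)⁻¹ = _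
        rw [inv_inv]
      rw [hw]
      set w := Q⁻¹ * u * Q with hwdef
      have hu2 : (u : Matrix (Fin d) (Fin d) D) = (Q : Matrix (Fin d) (Fin d) D) * (w : Matrix (Fin d) (Fin d) D) *
          ((Q⁻¹ : GL (Fin d) D) : Matrix (Fin d) (Fin d) D) := by
        rw [← Units.val_mul, ← Units.val_mul]
        congr 1
        rw [hwdef]; group
      rw [hu2, hmain] at hu1
      calc (w : Matrix (Fin d) (Fin d) D) * cst σ (w : Matrix (Fin d) (Fin d) D)
          = (((Q⁻¹ : GL (Fin d) D) : Matrix (Fin d) (Fin d) D) * (Q : Matrix (Fin d) (Fin d) D)) *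
            ((w : Matrix (Fin d) (Fin d) D) * cst σ (w : Matrix (Fin d) (Fin d) D)) *
            (cst σ (Q : Matrix (Fin d) (Fin d) D) * (((P⁻¹ : GL (Fin d) D) : Matrix (Fin d) (Fin d) D) *
            (P : Matrix (Fin d) (Fin d) D)) * cst σ ((Q⁻¹ : GL (Fin d) D) : Matrix (Fin d) (Fin d) D)) := by
            rw [hQ2, hP2, mul_one, hst, one_mul, mul_one]
        _ = ((Q⁻¹ : GL (Fin d) D) : Matrix (Fin d) (Fin d) D) * ((Q : Matrix (Fin d) (Fin d) D) *
            ((w : Matrix (Fin d) (Fin d) D) * cst σ (w : Matrix (Fin d) (Fin d) D)) *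
            (cst σ (Q : Matrix (Fin d) (Fin d) D) * ((P⁻¹ : GL (Fin d) D) : Matrix (Fin d) (Fin d) D))) *
            ((P : Matrix (Fin d) (Fin d) D) * cst σ ((Q⁻¹ : GL (Fin d) D) : Matrix (Fin d) (Fin d) D)) := by
            simp only [mul_assoc]
        _ = 1 := by
          rw [hu1, mul_one, hQ]
          calc ((Q⁻¹ : GL (Fin d) D) : Matrix (Fin d) (Fin d) D) * ((Q : Matrix (Fin d) (Fin d) D) *
                cst σ (Q : Matrix (Fin d) (Fin d) D) * cst σ ((Q⁻¹ : GL (Fin d) D) : Matrix (Fin d) (Fin d) D))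
              = (((Q⁻¹ : GL (Fin d) D) : Matrix (Fin d) (Fin d) D) * (Q : Matrix (Fin d) (Fin d) D)) *
                (cst σ (Q : Matrix (Fin d) (Fin d) D) *
                cst σ ((Q⁻¹ : GL (Fin d) D) : Matrix (Fin d) (Fin d) D)) := by simp only [mul_assoc]
            _ = 1 := by rw [hQ2, hst, one_mul]
    · intro hw
      refine ⟨Q * w * Q⁻¹, ?_, ?_⟩
      · change ((Q * w * Q⁻¹ : GL (Fin d) D) : Matrix (Fin d) (Fin d) D) *
          s ((Q * w * Q⁻¹ : GL (Fin d) D) : Matrix (Fin d) (Fin d) D) = 1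
        rw [Units.val_mul, Units.val_mul, hmain, hw, mul_one, ← mul_assoc, ← hQ, hP1]
      · change Q⁻¹ * (Q * w * Q⁻¹) * (Q⁻¹)⁻¹ = w
        group
  have e : ↥s.U ≃* ↥(GU d D q) :=
    (s.U.equivMapOfInjective _ (MulAut.conj Q⁻¹).injective).trans (MulEquiv.subgroupCongr key)
  exact (cf_gu hB hq d).congr e.symm

end Matrix

section Semisimple

variable {R : ∀ (S : Type u) [Group S], Prop}

theorem cf_unitary_second' {D : Type} [DivisionRing D] [Finite D] [CharP D r] {d : ℕ} [NeZero d]
    (hB : BaseLU r R) (s : RInv (Matrix (Fin d) (Fin d) D))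
    (h2 : ∃ z ∈ Subring.center (Matrix (Fin d) (Fin d) D), s z ≠ z) : CF R ↥s.U := by
  let _ : Field D := littleWedderburn D
  have := Fintype.ofFinite D
  exact cf_unitary_second s hB h2

theorem cf_units_matrix {D : Type} [DivisionRing D] [Finite D] [CharP D r] (hB : BaseLU r R) (d : ℕ) :
    CF R (Matrix (Fin d) (Fin d) D)ˣ := by
  let _ : Field D := littleWedderburn D
  exact cf_gl (F := D) hB d

/-- **The unitary group of a finite semisimple ring with an involution without factors of the first kind.** -/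
theorem cf_unitary_second_kind (hr : r.Prime) (hB : BaseLU r R) {E : Type} [Ring E] [Finite E]
    [IsSemisimpleRing E] [CharP E r] (s : RInv E) {z : E} (hz : ∀ x, x * z = z * x) (hu : IsUnit (s z - z)) :
    CF R ↥s.U := by
  classical
  obtain ⟨n, D, d, hD, hd, ⟨e⟩⟩ := IsSemisimpleRing.exists_ringEquiv_pi_matrix_divisionRing E
  have hfin : Finite (∀ i, Matrix (Fin (d i)) (Fin (d i)) (D i)) := Finite.of_equiv E e.toEquiv
  have hfin2 : ∀ i, Finite (Matrix (Fin (d i)) (Fin (d i)) (D i)) := fun i =>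
    Finite.of_surjective (fun x : ∀ i, Matrix (Fin (d i)) (Fin (d i)) (D i) => x i)
      (fun a => ⟨Pi.single i a, by simp⟩)
  have hne : ∀ i, Nonempty (Fin (d i)) := fun i => ⟨0⟩
  have hfin3 : ∀ i, Finite (D i) := fun i =>
    Finite.of_injective (fun c : D i => Matrix.scalar (Fin (d i)) c) (fun a b h => Matrix.scalar_inj.mp h)
  have key : CF R ↥(s.congr e).U := by
    refine cf_unitary_pi (s.congr e) (fun i => ?_) fun i hi => ?_
    · have := charP_factor hr e i
      exact cf_units_matrix hB (d i)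
    · have := charP_factor hr e i
      refine cf_unitary_second' hB _ ⟨e z i, ?_, ?_⟩
      · rw [Subring.mem_center_iff]
        intro g
        have h1 := congrArg e (hz (e.symm (Pi.single i g)))
        rw [map_mul, map_mul, e.apply_symm_apply] at h1
        have h2 := congrFun h1 i
        rw [Pi.mul_apply, Pi.mul_apply, Pi.single_eq_same] at h2
        exact h2
      · intro h
        have h1 : (s.congr e) (e z) i = (s.congr e) (Pi.single i (e z i)) i := apply_of_fix (s.congr e) hi (e z)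
        have h2 : (s.congr e) (Pi.single i (e z i)) i = e z i := h
        have h3 : (s.congr e) (e z) = e (s z) := by
          change e (s (e.symm (e z))) = _
          rw [e.symm_apply_apply]
        rw [h3, h2] at h1
        have h4 : e (s z - z) i = 0 := by
          rw [map_sub, Pi.sub_apply, h1, sub_self]
        obtain ⟨w, hw⟩ := hu
        have h5 : e (s z - z) i * e ((w⁻¹ : Eˣ) : E) i = 1 := by
          rw [← hw, ← Pi.mul_apply, ← map_mul, Units.mul_inv, map_one, Pi.one_apply]
        rw [h4, zero_mul] at h5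
        have h6 : (0 : Matrix (Fin (d i)) (Fin (d i)) (D i)) 0 0 = (1 : Matrix (Fin (d i)) (Fin (d i)) (D i)) 0 0 := by
          rw [h5]
        rw [Matrix.zero_apply, Matrix.one_apply_eq] at h6
        exact zero_ne_one h6
  exact key.congr (s.congrU e).symm

/-- fixed points of an involutory automorphism in the unitary group, no factors of the first kind -/
theorem cf_fixUnitary_second (hr : r.Prime) (hr2 : r ≠ 2) (hB : BaseLU r P) {A : Type} [Ring A] [Finite A]
    [IsSemisimpleRing A] [CharP A r] (τ : A ≃+* A) (hτ : ∀ a, τ (τ a) = a) (s : RInv A)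
    (hs : ∀ a, τ (s a) = s (τ a)) {z w : A} (hz : ∀ x, x * z = z * x) (hτz : τ z = z) (hw : τ w = w)
    (hzw : (s z - z) * w = 1) (hwz : w * (s z - z) = 1) : CF P ↥(s.U ⊓ fixU τ) := by
  have h1 : IsSemisimpleRing ↥(fixRing τ) := isSemisimpleRing_fixed τ hτ (isUnit_two hr hr2)
  have h2 : CharP ↥(fixRing τ) r := charP_subring _
  have h3 : CF P ↥(fixInv τ s hs).U := by
    refine cf_unitary_second_kind hr hB (fixInv τ s hs) (z := ⟨z, hτz⟩) (fun x => Subtype.ext (hz x)) ?_
    let a : ↥(fixRing τ) := (fixInv τ s hs) ⟨z, hτz⟩ - ⟨z, hτz⟩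
    let b : ↥(fixRing τ) := ⟨w, hw⟩
    have hab : a * b = 1 := Subtype.ext hzw
    have hba : b * a = 1 := Subtype.ext hwz
    exact ⟨⟨a, b, hab, hba⟩, rfl⟩
  have h4 : ((fixInv τ s hs).U.map ((fixU τ).subtype.comp (fixUEquiv τ).toMonoidHom)) = s.U ⊓ fixU τ := by
    ext u
    constructor
    · rintro ⟨v, hv, rfl⟩
      have h5 : (v : ↥(fixRing τ)) * (fixInv τ s hs) v = 1 := hv
      exact ⟨congrArg Subtype.val h5, (fixUEquiv τ v).2⟩
    · rintro ⟨hu, hu'⟩
      refine ⟨(fixUEquiv τ).symm ⟨u, hu'⟩, ?_, ?_⟩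
      · exact Subtype.ext hu
      · change ((fixUEquiv τ ((fixUEquiv τ).symm ⟨u, hu'⟩) : ↥(fixU τ)) : Aˣ) = u
        rw [MulEquiv.apply_symm_apply]
  have hinj : Function.Injective ((fixU τ).subtype.comp (fixUEquiv τ).toMonoidHom) :=
    (fixU τ).subtype_injective.comp (fixUEquiv τ).injective
  exact h3.congr (((fixInv τ s hs).U.equivMapOfInjective _ hinj).trans (MulEquiv.subgroupCongr h4))

end Semisimple

end Cfsg.Agent.H845.OIU
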